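import Cfsg.Agent.Lib.ClassicalForms.Exceptional.Common
import Cfsg.Agent.Lib.ClassicalForms.Exceptional.Alt4
import Cfsg.Agent.Lib.ClassicalForms.Ortho.POmegaCard
import Cfsg.Agent.Lib.ClassicalLinear.SympCard
import Cfsg.Agent.Lib.ClassicalLinear.SympPerfect

/-!
`PΩ₅(q) ≅ PSp₄(q)`, `q` odd.
-/

set_option autoImplicit false

namespace CfsgLib.ClassicalForms

open scoped commutatorElement
open Matrix

variable {F : Type*} [Field F]

/-- The coordinates `(z, x, y)` as a sextuple orthogonal to that of the symplectic form. -/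
def fiveVec (v : Unit ⊕ (Fin 2 ⊕ Fin 2) → F) : Fin 6 → F :=
  ![v (.inr (.inl 0)), v (.inl ()), v (.inr (.inl 1)), v (.inr (.inr 1)), -v (.inl ()),
    v (.inr (.inr 0))]

/-- The sextuple of the symplectic form. -/
def jVec : Fin 6 → F := ![0, -1, 0, 0, -1, 0]

lemma fiveVec_injective : Function.Injective (fiveVec (F := F)) := by
  intro u v h
  have e := fun r => congrFun h r
  funext i
  rcases i with i | i | i
  · simpa [fiveVec] using e 1
  · fin_cases i
    · simpa [fiveVec] using e 0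
    · simpa [fiveVec] using e 2
  · fin_cases i
    · simpa [fiveVec] using e 5
    · simpa [fiveVec] using e 3

lemma exists_fiveVec {a : Fin 6 → F} (h : a 1 + a 4 = 0) : ∃ v, fiveVec v = a := by
  refine ⟨Sum.elim (fun _ => a 1) (Sum.elim ![a 0, a 2] ![a 5, a 3]), ?_⟩
  funext r
  fin_cases r <;> simp [fiveVec]
  linear_combination -h

theorem nonempty_pOmega_five [Finite F] (hodd : Odd (Nat.card F)) :
    Nonempty (Cfsg.POmega F (Cfsg.quadFormOdd 2 F) ≃* Cfsg.PSp 2 F) := by
  classical
  have h2 := two_ne_zero_of_odd hodd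
  have := Fintype.ofFinite F
  let e : Fin 2 ⊕ Fin 2 ≃ Fin 4 := finSumFinEquiv
  let M : Matrix.symplecticGroup (Fin 2) F → Matrix (Fin 4) (Fin 4) F := fun g =>
    (g : Matrix (Fin 2 ⊕ Fin 2) (Fin 2 ⊕ Fin 2) F).submatrix e.symm e.symm
  have hM1 : M 1 = 1 := by
    show (1 : Matrix (Fin 2 ⊕ Fin 2) (Fin 2 ⊕ Fin 2) F).submatrix e.symm e.symm = 1
    exact Matrix.submatrix_one_equiv _
  have hMmul : ∀ g h, M (g * h) = M g * M h := fun g h => by
    show ((g : Matrix (Fin 2 ⊕ Fin 2) (Fin 2 ⊕ Fin 2) F)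
      * (h : Matrix (Fin 2 ⊕ Fin 2) (Fin 2 ⊕ Fin 2) F)).submatrix e.symm e.symm = _
    exact (Matrix.submatrix_mul_equiv _ _ _ _ _).symm
  have hJ : (Matrix.J (Fin 2) F).submatrix e.symm e.symm = Alt4.alt jVec := by
    ext i j
    fin_cases i <;> fin_cases j <;>
      simp [e, Matrix.J, Alt4.alt, jVec, finSumFinEquiv, Fin.addCases, Matrix.fromBlocks,
        Matrix.one_apply]
  have hfix : ∀ g, Alt4.act (M g) jVec = jVec := fun g => by
    apply Alt4.alt_injective
    rw [Alt4.alt_act, ← hJ]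
    show (g : Matrix (Fin 2 ⊕ Fin 2) (Fin 2 ⊕ Fin 2) F).submatrix e.symm e.symm
      * (Matrix.J (Fin 2) F).submatrix e.symm e.symm
      * ((g : Matrix (Fin 2 ⊕ Fin 2) (Fin 2 ⊕ Fin 2) F).submatrix e.symm e.symm)ᵀ = _
    rw [Matrix.transpose_submatrix, Matrix.submatrix_mul_equiv, Matrix.submatrix_mul_equiv,
      SymplecticGroup.mem_iff.1 g.2]
  have hdet : ∀ g, (M g).det = 1 := fun g => by
    have h := Alt4.pf_act (M g) (jVec (F := F))
    rw [hfix] at h
    simp [Alt4.pf, jVec] at h
    exact h.symm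
  have hB : ∀ a : Fin 6 → F, Alt4.pf (a + jVec) = Alt4.pf a + Alt4.pf jVec + (a 1 + a 4) :=
    fun a => by
      rw [Alt4.pf_add]
      simp [jVec]
  have hperp : ∀ g (a : Fin 6 → F), a 1 + a 4 = 0 →
      Alt4.act (M g) a 1 + Alt4.act (M g) a 4 = 0 := fun g a ha => by
    have h := Alt4.pf_act (M g) (a + jVec)
    rw [map_add, hfix, hB, hB, Alt4.pf_act, hdet, one_mul, one_mul, ha] at h
    linear_combination h
  have hsum : ∀ v : Unit ⊕ (Fin 2 ⊕ Fin 2) → F, fiveVec v 1 + fiveVec v 4 = 0 := fun v => by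
    simp [fiveVec]
  obtain ⟨φ, hφ⟩ := exists_orthHom (R := qOdd 2 F) (RingHom.id F) fiveVec fiveVec_injective
    (fun u v => by funext r; fin_cases r <;> simp [fiveVec]; ring)
    (fun t v => by funext r; fin_cases r <;> simp [fiveVec])
    (fun g => Alt4.act (M g))
    (fun v => by show Alt4.act (M 1) _ = _; rw [hM1, Alt4.act_one])
    (fun g g' v => by show Alt4.act (M (g * g')) _ = _; rw [hMmul, Alt4.act_mul])
    (fun g v => exists_fiveVec (hperp g _ (hsum v)))
    Alt4.pf
    (fun v => by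
      rw [qOdd_apply]
      simp [Cfsg.quadFormOdd, fiveVec, Alt4.pf, Fin.sum_univ_succ]
      ring)
    (fun g v => by rw [Alt4.pf_act, hdet, one_mul])
  have hker : φ.ker = Subgroup.center (Matrix.symplecticGroup (Fin 2) F) := by
    ext g
    rw [MonoidHom.mem_ker, CfsgLib.ClassicalLinear.mem_center_sp_iff (by norm_num)]
    constructor
    · intro hg
      have hall : ∀ a, Alt4.act (M g) a = a := fun a => by
        set t := -(a 1 + a 4) / 2 with ht
        obtain ⟨v, hv⟩ := exists_fiveVec (a := a - t • jVec) (by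
          simp [jVec, ht]
          field_simp
          ring)
        have h1 := hφ g v
        rw [hg, orth_one_apply, hv] at h1
        rw [map_sub, map_smul, hfix] at h1
        exact (sub_left_inj.1 h1).symm
      obtain ⟨d, hd, hgd⟩ := Alt4.exists_scalar_of_act_eq hall
      have hent : ∀ i j, (g : Matrix (Fin 2 ⊕ Fin 2) (Fin 2 ⊕ Fin 2) F) i j
          = (d • (1 : Matrix (Fin 2 ⊕ Fin 2) (Fin 2 ⊕ Fin 2) F)) i j := fun i j => by
        have h1 := congrFun (congrFun hgd (e i)) (e j)
        simpa [M, Matrix.one_apply, e.injective.eq_iff] using h1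
      rcases mul_self_eq_one_iff.1 hd with rfl | rfl
      · left; ext i j; simpa using hent i j
      · right; ext i j; simpa using hent i j
    · intro hg
      refine orth_ext fun v => fiveVec_injective ?_
      rw [hφ, orth_one_apply]
      rcases hg with h | h
      · rw [show g = 1 from Subtype.ext h, hM1, Alt4.act_one]
      · have : M g = -1 := by
          show (g : Matrix (Fin 2 ⊕ Fin 2) (Fin 2 ⊕ Fin 2) F).submatrix e.symm e.symm = _
          rw [h]
          ext i j
          simp [Matrix.one_apply]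
        rw [this, Alt4.act_neg_one]
  have hperf := CfsgLib.ClassicalLinear.commutator_sp_eq_top (F := F) (m := 2)
    (Or.inr (Or.inl ⟨le_rfl, h2⟩))
  have hQ := nondeg_qOdd (F := F) h2 2
  have := finite_orth (qOdd 2 F)
  refine nonempty_pOmega_equiv (qOdd_apply 2) φ (QuotientGroup.mk' _)
    (QuotientGroup.mk'_surjective _) (QuotientGroup.ker_mk' _) hker.le
    (fun g hg => mem_center_of_forall_commutator_mem hperf fun x => hker ▸ hg x)
    (range_le_commutator_of_perfect φ hperf) ?_
  have hO := card_orth_qOdd (F := F) h2 2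
  have hg2 : Nat.gcd 2 (Fintype.card F - 1) = 2 := by
    apply Nat.gcd_eq_left
    rw [← Nat.card_eq_fintype_card]
    obtain ⟨k, hk⟩ := hodd
    exact ⟨k, by omega⟩
  rw [index_commutator_orth_odd h2 (by simp) hQ, hker,
    CfsgLib.ClassicalLinear.card_center_sp (F := F) (m := 2) (by norm_num), hg2,
    CfsgLib.ClassicalLinear.card_sp, ← Nat.card_eq_fintype_card]
  have h1 : 1 ≤ Fintype.card F ^ 2 := Nat.one_le_pow _ _ Fintype.card_pos
  have h4 : 1 ≤ Fintype.card F ^ 4 := Nat.one_le_pow _ _ Fintype.card_pos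
  simp [Finset.prod_range_succ] at hO ⊢
  zify [h1, h4]
  rw [hO]; ring

end CfsgLib.ClassicalForms
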