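import Cfsg.Agent.Lib.ClassicalForms.Exceptional.Three
import Cfsg.Agent.Lib.ClassicalForms.Exceptional.QuadData
import Cfsg.Agent.Lib.ClassicalForms.Ortho.POmegaCard

/-!
`PΩ⁻₄(q) ≅ PSL₂(q²)`.
-/

set_option autoImplicit false

namespace CfsgLib.ClassicalForms

open scoped MatrixGroups commutatorElement
open Matrix

theorem nonempty_pOmega_four_minus {F K : Type*} [Field F] [Finite F] [Field K] [Finite K] {q : ℕ}
    (hF : Nat.card F = q) (hK : Nat.card K = q ^ 2) {a b : F} (hab : Aniso a b) :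
    Nonempty (Cfsg.POmega F (Cfsg.quadFormMinus 1 F a b)
      ≃* Matrix.ProjectiveSpecialLinearGroup (Fin 2) K) := by
  classical
  obtain ⟨c, ι, ω, hι, hfix, hne, hsum, hprod⟩ := exists_quad_data hF hK hab
  let wz : ((Fin 1 ⊕ Fin 1) ⊕ Fin 2 → F) → K := fun v => ι (v (.inr 0)) + ι (v (.inr 1)) * ω
  let E : ((Fin 1 ⊕ Fin 1) ⊕ Fin 2 → F) → Matrix (Fin 2) (Fin 2) K := fun v =>
    !![ι (v (.inl (.inl 0))), wz v; c.σ (wz v), -ι (v (.inl (.inr 0)))]
  have hadd : ∀ u v, E (u + v) = E u + E v := fun u v => by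
    ext i j; fin_cases i <;> fin_cases j <;> simp [E, wz] <;> ring
  have hsmul : ∀ (t : F) v, E (t • v) = ι t • E v := fun t v => by
    ext i j; fin_cases i <;> fin_cases j <;> simp [E, wz, hι] <;> ring
  have hinj : Function.Injective E := by
    intro u v h
    have e00 := ι.injective (show ι (u (.inl (.inl 0))) = ι (v (.inl (.inl 0))) by
      simpa [E] using congrFun (congrFun h 0) 0)
    have e11 := ι.injective (show ι (u (.inl (.inr 0))) = ι (v (.inl (.inr 0))) by
      simpa [E] using congrFun (congrFun h 1) 1)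
    have e01 : wz u = wz v := by simpa [E] using congrFun (congrFun h 0) 1
    have e10 := congrArg c.σ e01
    simp only [wz, map_add, map_mul, hι] at e01 e10
    have h1 : (ι (u (.inr 1)) - ι (v (.inr 1))) * (ω - c.σ ω) = 0 := by
      linear_combination e01 - e10
    have h2 := sub_eq_zero.1 ((mul_eq_zero.1 h1).resolve_right (sub_ne_zero.2 hne.symm))
    rw [h2] at e01
    have h3 := ι.injective (add_right_cancel e01)
    funext i
    rcases i with (i | i) | i
    · obtain rfl : i = 0 := Subsingleton.elim _ _; exact e00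
    · obtain rfl : i = 0 := Subsingleton.elim _ _; exact e11
    · fin_cases i
      · exact h3
      · exact ι.injective h2
  have hherm : ∀ H : Matrix (Fin 2) (Fin 2) K, (H.map c.σ)ᵀ = H → ∃ v, E v = H := by
    intro H hH
    have e00 : c.σ (H 0 0) = H 0 0 := congrFun (congrFun hH 0) 0
    have e11 : c.σ (H 1 1) = H 1 1 := congrFun (congrFun hH 1) 1
    have e10 : c.σ (H 0 1) = H 1 0 := congrFun (congrFun hH 1) 0
    obtain ⟨x, hx⟩ := hfix _ e00
    obtain ⟨y, hy⟩ := hfix _ e11
    have hd : ω - c.σ ω ≠ 0 := sub_ne_zero.2 hne.symm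
    obtain ⟨z₂, hz₂⟩ := hfix ((H 0 1 - c.σ (H 0 1)) / (ω - c.σ ω)) (by
      rw [map_div₀, map_sub, map_sub, c.invol, c.invol, ← neg_div_neg_eq, neg_sub, neg_sub])
    obtain ⟨z₁, hz₁⟩ := hfix ((ω * c.σ (H 0 1) - c.σ ω * H 0 1) / (ω - c.σ ω)) (by
      rw [map_div₀, map_sub, map_sub, map_mul, map_mul, c.invol, c.invol, ← neg_div_neg_eq,
        neg_sub, neg_sub])
    refine ⟨Sum.elim (Sum.elim ![x] ![-y]) ![z₁, z₂], ?_⟩
    have hw : wz (Sum.elim (Sum.elim ![x] ![-y]) ![z₁, z₂]) = H 0 1 := by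
      simp only [wz, Sum.elim_inr, Matrix.cons_val_zero, Matrix.cons_val_one, hz₁, hz₂]
      field_simp
      ring
    ext i j
    fin_cases i <;> fin_cases j <;> simp [E, hw, hx, hy, e10]
  have hEherm : ∀ v, ((E v).map c.σ)ᵀ = E v := fun v => by
    ext i j; fin_cases i <;> fin_cases j <;> simp [E, hι, c.invol]
  let T : SL(2, K) → Matrix (Fin 2) (Fin 2) K →ₗ[K] Matrix (Fin 2) (Fin 2) K := fun g =>
    (LinearMap.mulRight K (((g : Matrix (Fin 2) (Fin 2) K).map c.σ)ᵀ)).comp
      (LinearMap.mulLeft K (g : Matrix (Fin 2) (Fin 2) K))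
  have hT : ∀ g H, T g H = (g : Matrix (Fin 2) (Fin 2) K) * H
      * (((g : Matrix (Fin 2) (Fin 2) K).map c.σ)ᵀ) := fun g H => rfl
  obtain ⟨φ, hφ⟩ := exists_orthHom (R := qMinus 1 F a b) ι E hinj hadd hsmul T
    (fun v => by simp [hT])
    (fun g g' v => by
      rw [hT, hT, hT, Matrix.SpecialLinearGroup.coe_mul, Matrix.map_mul, Matrix.transpose_mul]
      simp only [Matrix.mul_assoc])
    (fun g v => hherm _ (by
      rw [hT, Matrix.map_mul, Matrix.map_mul, Matrix.transpose_mul, Matrix.transpose_mul, hEherm,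
        Matrix.mul_assoc]
      congr 1
      ext i j
      simp [c.invol]))
    (fun H => -H.det)
    (fun v => by
      rw [qMinus_apply, Matrix.det_fin_two]
      simp [E, wz, Cfsg.quadFormMinus, hι]
      linear_combination -(ι (v (.inr 0)) * ι (v (.inr 1))) * hsum
        - (ι (v (.inr 1))) ^ 2 * hprod)
    (fun g v => by
      rw [hT, Matrix.det_mul, Matrix.det_mul, Matrix.det_transpose, ← RingHom.mapMatrix_apply,
        ← RingHom.map_det, g.2, map_one, one_mul, mul_one])
  have hker : φ.ker = Subgroup.center SL(2, K) := by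
    ext g
    rw [MonoidHom.mem_ker]
    constructor
    · intro hg
      have e : ∀ v, (g : Matrix (Fin 2) (Fin 2) K) * E v
          * (((g : Matrix (Fin 2) (Fin 2) K).map c.σ)ᵀ) = E v := fun v => by
        rw [← hT, ← hφ, hg, orth_one_apply]
      obtain ⟨v1, hv1⟩ := hherm 1 (by simp)
      have h1 := e v1
      rw [hv1, Matrix.mul_one] at h1
      have h1' : ((g : Matrix (Fin 2) (Fin 2) K).map c.σ)ᵀ * (g : Matrix (Fin 2) (Fin 2) K) = 1 :=
        mul_eq_one_comm.1 h1
      have hc : ∀ v, (g : Matrix (Fin 2) (Fin 2) K) * E v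
          = E v * (g : Matrix (Fin 2) (Fin 2) K) := fun v => by
        conv_rhs => rw [← e v]
        rw [Matrix.mul_assoc, h1', Matrix.mul_one]
      obtain ⟨v2, hv2⟩ := hherm !![1, 0; 0, 0] (by
        ext i j; fin_cases i <;> fin_cases j <;> simp)
      obtain ⟨v3, hv3⟩ := hherm !![0, 1; 1, 0] (by
        ext i j; fin_cases i <;> fin_cases j <;> simp)
      have h2 := hc v2
      have h3 := hc v3
      rw [hv2] at h2
      rw [hv3] at h3
      rw [CfsgLib.SL2.mem_center_iff_isScalarMat, CfsgLib.SL2.isScalarMat_iff]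
      refine ⟨g 0 0, ?_⟩
      have a01 := congrFun (congrFun h2 0) 1
      have a10 := congrFun (congrFun h2 1) 0
      have a00 := congrFun (congrFun h3 0) 1
      simp [Matrix.mul_apply, Fin.sum_univ_two] at a01 a10 a00
      ext i j
      fin_cases i <;> fin_cases j <;> simp [← a01, a10, a00]
    · intro hg
      refine orth_ext fun v => hinj ?_
      rw [hφ, orth_one_apply, hT]
      rcases (CfsgLib.SL2.mem_center_iff _).1 hg with h | h <;> subst h <;> simp [Matrix.map_neg]
  have hQ := nondeg_qMinus hab 1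
  have := finite_orth (qMinus 1 F a b)
  have hcardO := card_orth_qMinus hab 1
  have h1 : 1 ≤ (q ^ 2) ^ 2 := Nat.one_le_pow _ _ (by rw [← hK]; exact Nat.card_pos)
  simp [hF] at hcardO
  have hK4 : 4 ≤ Nat.card K := by
    rw [hK]
    have : 2 ≤ q := hF ▸ Finite.one_lt_card
    nlinarith
  obtain ⟨s, hs, hs2⟩ := CfsgLib.ClassicalLinear.exists_sq_ne_one_of_four_le_card (F := K) hK4
  have hperf := CfsgLib.ClassicalLinear.commutator_sl_eq_top (ι := Fin 2) (Or.inr ⟨s, hs, hs2⟩)
  have hrange := range_le_commutator_of_perfect φ hperf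
  refine nonempty_pOmega_equiv (qMinus_apply 1 a b) φ (QuotientGroup.mk' _)
    (QuotientGroup.mk'_surjective _) (QuotientGroup.ker_mk' _) hker.le
    (fun g hg => mem_center_sl_two fun x => hker ▸ hg x) hrange ?_
  by_cases h2 : (2 : F) = 0
  · have hc2 : Nat.card (qMinus 1 F a b |> orth) * Nat.card φ.ker = Nat.card SL(2, K) * 2 := by
      rw [hker, CfsgLib.SL2.center_eq_bot_of_two (by rw [← map_ofNat ι, h2, map_zero]),
        Subgroup.card_bot, mul_one, CfsgLib.SL2.card_SL, hK]
      zify [h1]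
      rw [hcardO]; ring
    rw [index_commutator_eq_two φ hrange hc2, hc2]
  · rw [index_commutator_orth_odd h2 (by simp) hQ, hker,
      CfsgLib.SL2.center_card_of_odd (by rw [← map_ofNat ι]; exact (map_ne_zero ι).2 h2),
      CfsgLib.SL2.card_SL, hK]
    zify [h1]
    rw [hcardO]; ring

end CfsgLib.ClassicalForms
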