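import Cfsg.Agent.Lib.ClassicalForms.Exceptional.Three
import Cfsg.Agent.Lib.ClassicalForms.Ortho.POmegaCard

/-!
`PΩ⁺₄(q) ≅ PSL₂(q) × PSL₂(q)`, `q ≥ 3`.
-/

set_option autoImplicit false
set_option maxHeartbeats 400000

namespace CfsgLib.ClassicalForms

open scoped MatrixGroups commutatorElement
open Matrix

variable {F : Type*} [Field F]

/-- `(x₀, x₁, y₀, y₁)` as the matrix `[[x₀, x₁], [-y₁, y₀]]`. -/
def toM (v : Fin 2 ⊕ Fin 2 → F) : Matrix (Fin 2) (Fin 2) F :=
  !![v (.inl 0), v (.inl 1); -v (.inr 1), v (.inr 0)]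

/-- The inverse of `toM`. -/
def ofM (X : Matrix (Fin 2) (Fin 2) F) : Fin 2 ⊕ Fin 2 → F :=
  Sum.elim ![X 0 0, X 0 1] ![X 1 1, -X 1 0]

lemma toM_ofM (X : Matrix (Fin 2) (Fin 2) F) : toM (ofM X) = X := by
  ext i j; fin_cases i <;> fin_cases j <;> simp [toM, ofM]

lemma ofM_toM (v : Fin 2 ⊕ Fin 2 → F) : ofM (toM v) = v := by
  funext i; rcases i with i | i <;> fin_cases i <;> simp [toM, ofM]

lemma qPlus_toM (v : Fin 2 ⊕ Fin 2 → F) : qPlus 2 F v = (toM v).det := by
  rw [qPlus_apply, Matrix.det_fin_two]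
  simp [Cfsg.quadFormPlus, toM, Fin.sum_univ_two]

/-- The action `X ↦ g X hᵀ`. -/
def fourMap (p : SL(2, F) × SL(2, F)) : (Fin 2 ⊕ Fin 2 → F) →ₗ[F] (Fin 2 ⊕ Fin 2 → F) where
  toFun v := ofM ((p.1 : Matrix (Fin 2) (Fin 2) F) * toM v * (p.2 : Matrix (Fin 2) (Fin 2) F)ᵀ)
  map_add' u v := by
    funext i
    rcases i with i | i <;> fin_cases i <;>
      simp [toM, ofM, Matrix.mul_apply, Fin.sum_univ_two] <;> ring
  map_smul' a v := by
    funext i
    rcases i with i | i <;> fin_cases i <;>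
      simp [toM, ofM, Matrix.mul_apply, Fin.sum_univ_two] <;> ring

lemma fourMap_apply (p : SL(2, F) × SL(2, F)) (v : Fin 2 ⊕ Fin 2 → F) :
    fourMap p v
      = ofM ((p.1 : Matrix (Fin 2) (Fin 2) F) * toM v * (p.2 : Matrix (Fin 2) (Fin 2) F)ᵀ) := rfl

lemma fourMap_mul (p r : SL(2, F) × SL(2, F)) (v : Fin 2 ⊕ Fin 2 → F) :
    fourMap (p * r) v = fourMap p (fourMap r v) := by
  rw [fourMap_apply, fourMap_apply, fourMap_apply, toM_ofM, Prod.fst_mul, Prod.snd_mul,
    Matrix.SpecialLinearGroup.coe_mul, Matrix.SpecialLinearGroup.coe_mul, Matrix.transpose_mul]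
  simp only [Matrix.mul_assoc]

lemma fourMap_one (v : Fin 2 ⊕ Fin 2 → F) : fourMap 1 v = v := by
  rw [fourMap_apply]
  simp [ofM_toM]

/-- `SL₂ × SL₂ → O⁺₄`. -/
noncomputable def fourHom : SL(2, F) × SL(2, F) →* orth (qPlus 2 F) :=
  orthHom fourMap fourMap_one fourMap_mul fun p v => by
    rw [qPlus_toM, qPlus_toM, fourMap_apply, toM_ofM, Matrix.det_mul, Matrix.det_mul,
      Matrix.det_transpose, p.1.2, p.2.2, one_mul, mul_one]

lemma fourHom_apply (p : SL(2, F) × SL(2, F)) (v : Fin 2 ⊕ Fin 2 → F) :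
    (fourHom p : _ ≃ₗ[F] Fin 2 ⊕ Fin 2 → F) v = fourMap p v :=
  by unfold fourHom; rw [orthHom_apply]

lemma mem_center_prod {p : SL(2, F) × SL(2, F)} :
    p ∈ Subgroup.center (SL(2, F) × SL(2, F))
      ↔ p.1 ∈ Subgroup.center SL(2, F) ∧ p.2 ∈ Subgroup.center SL(2, F) := by
  simp only [Subgroup.mem_center_iff]
  refine ⟨fun h => ⟨fun x => congrArg Prod.fst (h (x, 1)), fun x => congrArg Prod.snd (h (1, x))⟩,
    fun h x => Prod.ext (h.1 x.1) (h.2 x.2)⟩

theorem mem_ker_fourHom (p : SL(2, F) × SL(2, F)) :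
    p ∈ (fourHom (F := F)).ker ↔ p.1 ∈ Subgroup.center SL(2, F) ∧ p.2 = p.1 := by
  rw [MonoidHom.mem_ker]
  constructor
  · intro h
    have e : ∀ X : Matrix (Fin 2) (Fin 2) F,
        (p.1 : Matrix (Fin 2) (Fin 2) F) * X * (p.2 : Matrix (Fin 2) (Fin 2) F)ᵀ = X := fun X => by
      have h1 := congrArg toM ((fourHom_apply p (ofM X)).symm.trans
        (congrArg (fun k : orth (qPlus 2 F) => k.1 (ofM X)) h))
      rw [fourMap_apply, toM_ofM, toM_ofM] at h1
      simpa [toM_ofM] using h1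
    have h1 := e 1
    rw [Matrix.mul_one] at h1
    have h1' : (p.2 : Matrix (Fin 2) (Fin 2) F)ᵀ * (p.1 : Matrix (Fin 2) (Fin 2) F) = 1 :=
      mul_eq_one_comm.1 h1
    have hc : ∀ X : Matrix (Fin 2) (Fin 2) F,
        (p.1 : Matrix (Fin 2) (Fin 2) F) * X = X * (p.1 : Matrix (Fin 2) (Fin 2) F) := fun X => by
      conv_rhs => rw [← e X]
      rw [Matrix.mul_assoc, h1', Matrix.mul_one]
    have hz : p.1 ∈ Subgroup.center SL(2, F) := Subgroup.mem_center_iff.2 fun x =>
      Subtype.ext (hc x).symm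
    refine ⟨hz, ?_⟩
    rcases (CfsgLib.SL2.mem_center_iff _).1 hz with h0 | h0 <;> rw [h0] at h1 ⊢ <;>
      refine Subtype.ext ?_
    · simp at h1
      simpa using congrArg Matrix.transpose h1
    · simp at h1
      simpa [neg_eq_iff_eq_neg] using congrArg Matrix.transpose h1
  · rintro ⟨h1, h2⟩
    refine orth_ext fun v => ?_
    rw [fourHom_apply, orth_one_apply, fourMap_apply, h2]
    rcases (CfsgLib.SL2.mem_center_iff _).1 h1 with h | h <;> rw [h] <;> simp [ofM_toM]

theorem nonempty_pOmega_four_plus [Finite F] (hq : 3 ≤ Nat.card F) :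
    Nonempty (Cfsg.POmega F (Cfsg.quadFormPlus 2 F)
      ≃* Matrix.ProjectiveSpecialLinearGroup (Fin 2) F
        × Matrix.ProjectiveSpecialLinearGroup (Fin 2) F) := by
  have hQ := nondeg_qPlus (F := F) 2
  have hn : 2 ≤ Fintype.card (Fin 2 ⊕ Fin 2) := by simp
  have := finite_orth (qPlus 2 F)
  have hkc : Nat.card (fourHom (F := F)).ker = Nat.card (Subgroup.center SL(2, F)) := by
    refine Nat.card_congr
      { toFun := fun p => ⟨p.1.1, ((mem_ker_fourHom p.1).1 p.2).1⟩
        invFun := fun z => ⟨(z.1, z.1), (mem_ker_fourHom _).2 ⟨z.2, rfl⟩⟩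
        left_inv := fun p => Subtype.ext (Prod.ext rfl ((mem_ker_fourHom p.1).1 p.2).2.symm)
        right_inv := fun z => rfl }
  let π := MonoidHom.prodMap (QuotientGroup.mk' (Subgroup.center SL(2, F)))
    (QuotientGroup.mk' (Subgroup.center SL(2, F)))
  have hπ : Function.Surjective π :=
    (QuotientGroup.mk'_surjective _).prodMap (QuotientGroup.mk'_surjective _)
  have hπker : π.ker = Subgroup.center (SL(2, F) × SL(2, F)) := by
    ext p
    rw [mem_center_prod, MonoidHom.mem_ker, Prod.ext_iff]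
    show QuotientGroup.mk' _ p.1 = 1 ∧ QuotientGroup.mk' _ p.2 = 1 ↔ _
    simp only [QuotientGroup.mk'_apply, QuotientGroup.eq_one_iff]
  have hker : (fourHom (F := F)).ker ≤ Subgroup.center (SL(2, F) × SL(2, F)) := fun p hp => by
    obtain ⟨h1, h2⟩ := (mem_ker_fourHom p).1 hp
    exact mem_center_prod.2 ⟨h1, h2 ▸ h1⟩
  refine nonempty_pOmega_equiv (qPlus_apply 2) fourHom π hπ hπker hker (fun g hg =>
    mem_center_prod.2 ⟨mem_center_sl_two fun x => (mem_center_prod.1 (hker (hg (x, 1)))).1,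
      mem_center_sl_two fun x => (mem_center_prod.1 (hker (hg (1, x)))).2⟩) ?_ ?_
  · by_cases h2 : (2 : F) = 0
    · have he : Even (Nat.card F) := card_even_of_two_eq_zero h2
      obtain ⟨a, ha, ha2⟩ := CfsgLib.ClassicalLinear.exists_sq_ne_one_of_four_le_card (F := F)
        (by rw [Nat.even_iff] at he; omega)
      have hperf := CfsgLib.ClassicalLinear.commutator_sl_eq_top (ι := Fin 2) (Or.inr ⟨a, ha, ha2⟩)
      refine range_le_commutator_of_perfect _ (eq_top_iff.2 fun p _ => ?_)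
      have hl : ∀ x, (x, (1 : SL(2, F))) ∈ commutator (SL(2, F) × SL(2, F)) := fun x =>
        range_le_commutator_of_perfect (MonoidHom.inl SL(2, F) SL(2, F)) hperf ⟨x, rfl⟩
      have hr : ∀ x, ((1 : SL(2, F)), x) ∈ commutator (SL(2, F) × SL(2, F)) := fun x =>
        range_le_commutator_of_perfect (MonoidHom.inr SL(2, F) SL(2, F)) hperf ⟨x, rfl⟩
      have := mul_mem (hl p.1) (hr p.2)
      simpa using this
    · obtain ⟨p, hp, hchar⟩ : ∃ p : ℕ, p.Prime ∧ CharP F p :=
        ⟨ringChar F, CharP.char_is_prime F _, ringChar.charP F⟩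
      have hp2 : p ≠ 2 := fun e => h2 (by subst e; exact_mod_cast CharP.cast_eq_zero F 2)
      let S : Set SL(2, F) := {g | ∃ (i j : Fin 2) (h : i ≠ j) (c : F),
        g = SpecialLinearGroup.transvection h c}
      have hS : Subgroup.closure S = ⊤ := CfsgLib.ClassicalLinear.closure_transvections_eq_top
      have hpow : ∀ s ∈ S, s ^ p = 1 := by
        rintro _ ⟨i, j, hij, c, rfl⟩
        rw [transvection_pow, CharP.cast_eq_zero, zero_mul]
        exact Subtype.ext (by simp [SpecialLinearGroup.transvection, Matrix.transvection])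
      refine range_le_of_pow_eq_one fourHom (commutator _) (p := p) ?_
        ((fun x => (x, 1)) '' S ∪ (fun x => (1, x)) '' S) ?_ ?_
      · rw [index_commutator_orth_odd h2 hn hQ, show (4 : ℕ) = 2 ^ 2 from rfl]
        exact Nat.Coprime.pow_right 2 ((Nat.coprime_primes hp Nat.prime_two).2 hp2)
      · refine eq_top_iff.2 fun x _ => ?_
        have hl : ∀ a, MonoidHom.inl SL(2, F) SL(2, F) a
            ∈ Subgroup.closure ((fun x => (x, 1)) '' S ∪ (fun x => (1, x)) '' S) := fun a => by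
          have : a ∈ Subgroup.closure S := hS ▸ Subgroup.mem_top a
          have h' := Subgroup.mem_map_of_mem (MonoidHom.inl SL(2, F) SL(2, F)) this
          rw [MonoidHom.map_closure] at h'
          exact Subgroup.closure_mono Set.subset_union_left h'
        have hr : ∀ a, MonoidHom.inr SL(2, F) SL(2, F) a
            ∈ Subgroup.closure ((fun x => (x, 1)) '' S ∪ (fun x => (1, x)) '' S) := fun a => by
          have : a ∈ Subgroup.closure S := hS ▸ Subgroup.mem_top a
          have h' := Subgroup.mem_map_of_mem (MonoidHom.inr SL(2, F) SL(2, F)) this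
          rw [MonoidHom.map_closure] at h'
          exact Subgroup.closure_mono Set.subset_union_right h'
        have := mul_mem (hl x.1) (hr x.2)
        simpa using this
      · rintro _ (⟨s, hs, rfl⟩ | ⟨s, hs, rfl⟩)
        · exact Prod.ext (hpow s hs) (one_pow p)
        · exact Prod.ext (one_pow p) (hpow s hs)
  · have h := card_orth_qPlus (F := F) 2 (by norm_num)
    have h1 : 1 ≤ Nat.card F ^ 2 := Nat.one_le_pow _ _ Nat.card_pos
    simp [Finset.prod_range_succ] at h
    rw [hkc, Nat.card_prod, CfsgLib.SL2.card_SL]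
    by_cases h2 : (2 : F) = 0
    · obtain ⟨a, ha, ha2⟩ := CfsgLib.ClassicalLinear.exists_sq_ne_one_of_four_le_card (F := F)
        (by have he : Even (Nat.card F) := card_even_of_two_eq_zero h2
            rw [Nat.even_iff] at he; omega)
      rw [index_commutator_orth_even h2 hn hQ (Or.inl ⟨a, ha, fun e => ha2 (by rw [e, one_pow])⟩),
        CfsgLib.SL2.center_eq_bot_of_two h2, Subgroup.card_bot, mul_one]
      zify [h1]
      rw [h]; ring
    · rw [index_commutator_orth_odd h2 hn hQ, CfsgLib.SL2.center_card_of_odd h2]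
      zify [h1]
      rw [h]; ring

end CfsgLib.ClassicalForms
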