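import Cfsg.Agent.Lib.ClassicalForms.Exceptional.Common
import Cfsg.Agent.Lib.ClassicalLinear.Card
import Cfsg.Agent.Lib.ClassicalLinear.Generation
import Cfsg.Agent.Lib.SL2.Basic
import Cfsg.Agent.Lib.SL2.Card

/-!
`PΩ₃(q) ≅ PSL₂(q)`, `q` odd.
-/

set_option autoImplicit false

namespace CfsgLib.ClassicalForms

open scoped MatrixGroups commutatorElement
open Matrix

variable {F : Type*} [Field F]

lemma transvection_pow {ι : Type*} [Fintype ι] [DecidableEq ι] {i j : ι} (hij : i ≠ j) (c : F)
    (k : ℕ) : SpecialLinearGroup.transvection hij c ^ k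
      = SpecialLinearGroup.transvection hij ((k : F) * c) := by
  induction k with
  | zero =>
    rw [pow_zero, Nat.cast_zero, zero_mul]
    exact Subtype.ext (by simp [SpecialLinearGroup.transvection, Matrix.transvection])
  | succ k ih =>
    rw [pow_succ, ih, ← SpecialLinearGroup.transvection_add]
    congr 1
    push_cast; ring

/-- An element all whose commutators are central is central in `SL₂`. -/
theorem mem_center_sl_two {g : SL(2, F)}
    (h : ∀ x, ⁅g, x⁆ ∈ Subgroup.center SL(2, F)) : g ∈ Subgroup.center SL(2, F) := by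
  have key : ∀ (i j : Fin 2) (hij : i ≠ j) (c : F),
      g * SpecialLinearGroup.transvection hij c = SpecialLinearGroup.transvection hij c * g := by
    intro i j hij c
    set t := SpecialLinearGroup.transvection hij c with ht
    rcases (CfsgLib.SL2.mem_center_iff _).1 (h t) with h1 | h1
    · exact commutatorElement_eq_one_iff_mul_comm.1 h1
    · have h2 : g * t * g⁻¹ = -t := by
        rw [commutatorElement_def, mul_inv_eq_iff_eq_mul, neg_mul, one_mul] at h1
        exact h1
      have h3 := congrArg CfsgLib.SL2.tr h2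
      rw [CfsgLib.SL2.tr_conj] at h3
      have htr : CfsgLib.SL2.tr t = 2 := by
        fin_cases i <;> fin_cases j <;> first
          | exact absurd rfl hij
          | (simp [ht, CfsgLib.SL2.tr, SpecialLinearGroup.transvection, Matrix.transvection,
              Matrix.single]; norm_num)
      have hneg : CfsgLib.SL2.tr (-t) = -2 := by
        rw [← htr]; simp [CfsgLib.SL2.tr]; ring
      rw [htr, hneg] at h3
      have h4 : (4 : F) = 0 := by linear_combination h3
      have h22 : (2 : F) = 0 := by
        have : (2 : F) * 2 = 0 := by linear_combination h4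
        simpa using this
      rw [mul_inv_eq_iff_eq_mul] at h2
      rw [h2]
      refine Subtype.ext ?_
      rw [Matrix.SpecialLinearGroup.coe_mul, Matrix.SpecialLinearGroup.coe_mul,
        Matrix.SpecialLinearGroup.coe_neg, Matrix.neg_mul]
      ext a b
      rw [Matrix.neg_apply]
      linear_combination (-(((t : Matrix (Fin 2) (Fin 2) F) * (g : Matrix (Fin 2) (Fin 2) F)) a b))
        * h22
  refine Subgroup.mem_center_iff.2 fun x => ?_
  induction x using CfsgLib.ClassicalLinear.transvection_induction with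
  | one => rw [one_mul, mul_one]
  | transvec i j hij c => exact (key i j hij c).symm
  | mul A B hA hB => rw [mul_assoc, hB, ← mul_assoc, hA, mul_assoc]

/-- The action on `(z, x, y)` seen as the symmetric matrix `[[x, z], [z, -y]]`. -/
def threeMap (g : SL(2, F)) :
    (Unit ⊕ (Fin 1 ⊕ Fin 1) → F) →ₗ[F] (Unit ⊕ (Fin 1 ⊕ Fin 1) → F) where
  toFun v := Sum.elim
    (fun _ => g 0 0 * g 1 0 * v (.inr (.inl 0))
      + (g 0 0 * g 1 1 + g 0 1 * g 1 0) * v (.inl ()) - g 0 1 * g 1 1 * v (.inr (.inr 0)))
    (Sum.elim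
      (fun _ => g 0 0 ^ 2 * v (.inr (.inl 0)) + 2 * g 0 0 * g 0 1 * v (.inl ())
        - g 0 1 ^ 2 * v (.inr (.inr 0)))
      (fun _ => -(g 1 0 ^ 2 * v (.inr (.inl 0))) - 2 * g 1 0 * g 1 1 * v (.inl ())
        + g 1 1 ^ 2 * v (.inr (.inr 0))))
  map_add' u v := by funext i; rcases i with i | i | i <;> simp <;> ring
  map_smul' a v := by funext i; rcases i with i | i | i <;> simp <;> ring

lemma threeMap_mul (g h : SL(2, F)) (v : Unit ⊕ (Fin 1 ⊕ Fin 1) → F) :
    threeMap (g * h) v = threeMap g (threeMap h v) := by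
  funext i
  rcases i with i | i | i <;>
    simp [threeMap, Matrix.mul_apply, Fin.sum_univ_two] <;> ring

lemma threeMap_one (v : Unit ⊕ (Fin 1 ⊕ Fin 1) → F) : threeMap (1 : SL(2, F)) v = v := by
  funext i
  rcases i with i | i | i
  · simp [threeMap]
  · obtain rfl : i = 0 := Subsingleton.elim _ _
    simp [threeMap]
  · obtain rfl : i = 0 := Subsingleton.elim _ _
    simp [threeMap]

/-- `SL₂ → O₃`. -/
noncomputable def threeHom : SL(2, F) →* orth (qOdd 1 F) where
  toFun g := ⟨LinearEquiv.ofLinear (threeMap g) (threeMap g⁻¹)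
      (LinearMap.ext fun v => by
        rw [LinearMap.comp_apply, ← threeMap_mul, mul_inv_cancel, threeMap_one]; rfl)
      (LinearMap.ext fun v => by
        rw [LinearMap.comp_apply, ← threeMap_mul, inv_mul_cancel, threeMap_one]; rfl), fun v => by
    show qOdd 1 F (threeMap g v) = _
    have hd : g 0 0 * g 1 1 - g 0 1 * g 1 0 = 1 := by rw [← Matrix.det_fin_two]; exact g.2
    rw [qOdd_apply, qOdd_apply]
    simp [Cfsg.quadFormOdd, threeMap]
    linear_combination ((g 0 0 * g 1 1 - g 0 1 * g 1 0) + 1)
      * (v (.inl ()) ^ 2 + v (.inr (.inl 0)) * v (.inr (.inr 0))) * hd⟩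
  map_one' := orth_ext fun v => threeMap_one v
  map_mul' g h := orth_ext fun v => threeMap_mul g h v

lemma threeHom_apply (g : SL(2, F)) (v : Unit ⊕ (Fin 1 ⊕ Fin 1) → F) :
    (threeHom g : _ ≃ₗ[F] Unit ⊕ (Fin 1 ⊕ Fin 1) → F) v = threeMap g v := rfl

theorem ker_threeHom (h2 : (2 : F) ≠ 0) :
    (threeHom (F := F)).ker = Subgroup.center SL(2, F) := by
  ext g
  rw [MonoidHom.mem_ker, CfsgLib.SL2.mem_center_iff]
  constructor
  · intro h
    have e := fun v i => congrFun ((threeHom_apply g v).symm.trans
      (congrArg (fun k : orth (qOdd 1 F) => k.1 v) h)) i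
    have e1 := e (Pi.single (.inr (.inl 0)) 1) (.inr (.inl 0))
    have e2 := e (Pi.single (.inr (.inl 0)) 1) (.inr (.inr 0))
    have e3 := e (Pi.single (.inr (.inr 0)) 1) (.inr (.inl 0))
    have e4 := e (Pi.single (.inl ()) 1) (.inl ())
    simp [threeMap, Pi.single_apply] at e1 e2 e3 e4
    rw [e2, mul_zero, add_zero] at e4
    rcases e1 with ha | ha <;> rw [ha] at e4
    · left
      refine Subtype.ext ?_
      ext i j
      fin_cases i <;> fin_cases j <;> simp_all
    · right
      have hd : g 1 1 = -1 := by linear_combination -e4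
      refine Subtype.ext ?_
      ext i j
      fin_cases i <;> fin_cases j <;> simp_all
  · rintro (rfl | rfl)
    · exact map_one _
    · refine orth_ext fun v => ?_
      rw [threeHom_apply, orth_one_apply]
      funext i
      rcases i with i | i | i
      · simp [threeMap]
      · obtain rfl : i = 0 := Subsingleton.elim _ _
        simp [threeMap]
      · obtain rfl : i = 0 := Subsingleton.elim _ _
        simp [threeMap]

theorem nonempty_pOmega_three [Finite F] (hodd : Odd (Nat.card F)) :
    Nonempty (Cfsg.POmega F (Cfsg.quadFormOdd 1 F)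
      ≃* Matrix.ProjectiveSpecialLinearGroup (Fin 2) F) := by
  have h2 := two_ne_zero_of_odd hodd
  have hQ := nondeg_qOdd (F := F) h2 1
  have hn : 2 ≤ Fintype.card (Unit ⊕ (Fin 1 ⊕ Fin 1)) := by simp
  have := finite_orth (qOdd 1 F)
  have hidx := index_commutator_orth_odd h2 hn hQ
  have hker := ker_threeHom h2
  obtain ⟨p, hp, hchar⟩ : ∃ p : ℕ, p.Prime ∧ CharP F p :=
    ⟨ringChar F, CharP.char_is_prime F _, ringChar.charP F⟩
  have hp2 : p ≠ 2 := fun e => h2 (by subst e; exact_mod_cast CharP.cast_eq_zero F 2)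
  refine nonempty_pOmega_equiv (qOdd_apply 1) threeHom (QuotientGroup.mk' _)
    (QuotientGroup.mk'_surjective _) (QuotientGroup.ker_mk' _) hker.le
    (fun g hg => mem_center_sl_two fun x => hker ▸ hg x) ?_ ?_
  · refine range_le_of_pow_eq_one threeHom (commutator _) (p := p) ?_ _
      CfsgLib.ClassicalLinear.closure_transvections_eq_top ?_
    · rw [hidx, show (4 : ℕ) = 2 ^ 2 from rfl]
      exact Nat.Coprime.pow_right 2 ((Nat.coprime_primes hp Nat.prime_two).2 hp2)
    · rintro _ ⟨i, j, hij, c, rfl⟩
      rw [transvection_pow, CharP.cast_eq_zero, zero_mul]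
      exact Subtype.ext (by simp [SpecialLinearGroup.transvection, Matrix.transvection])

  · rw [hidx, hker, CfsgLib.SL2.center_card_of_odd h2, CfsgLib.SL2.card_SL]
    have h := card_orth_qOdd (F := F) h2 1
    have h1 : 1 ≤ Nat.card F ^ 2 := Nat.one_le_pow _ _ Nat.card_pos
    zify [h1]
    simp at h
    rw [h]
    ring

end CfsgLib.ClassicalForms
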